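import Mathlib
import Cfsg.Agent.Lib.GLChar.Cosets

/-!
Block labels of compositions and the indices of the standard parabolic subgroups of `GL_n(q)`.
-/

set_option autoImplicit false

namespace H64.GC

open Finset Matrix Cfsg

variable {n : ℕ}

lemma lt_compLabel (μ : Fin n → ℕ) (i j : Fin n) :
    (j : ℕ) < compLabel μ i ↔ ∑ k with k ≤ j, μ k ≤ i :=
  Fin.lt_card_filter_univ_iff_apply_of_imp (fun j : Fin n => ∑ k with k ≤ j, μ k ≤ (i : ℕ))
    fun a b h h' => (sum_le_sum_of_subset (by intro k; simp only [mem_filter]; grind)).trans h'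

lemma le_compLabel (μ : Fin n → ℕ) (i a : Fin n) :
    (a : ℕ) ≤ compLabel μ i ↔ ∑ k with k < a, μ k ≤ i := by
  obtain ⟨_ | a, ha⟩ := a
  · simp [Fin.lt_def]
  · refine (lt_compLabel μ i ⟨a, by omega⟩).trans ?_
    simp only [Fin.lt_def, Fin.le_def, Nat.lt_succ_iff]

lemma compLabel_lt {μ : Fin n → ℕ} (hμ : ∑ i, μ i = n) (i : Fin n) : compLabel μ i < n := by
  have hi := i.2
  have := lt_compLabel μ i ⟨n - 1, by omega⟩
  rw [filter_true_of_mem (fun k _ => by have := k.2; simp only [Fin.le_def]; omega), hμ] at this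
  simp only at this
  omega

/-- The block label as an element of `Fin n`. -/
def lab {μ : Fin n → ℕ} (hμ : ∑ i, μ i = n) (i : Fin n) : Fin n :=
  ⟨compLabel μ i, compLabel_lt hμ i⟩

lemma lab_mono {μ : Fin n → ℕ} (hμ : ∑ i, μ i = n) : Monotone (lab hμ) := fun a b h => by
  change compLabel μ a ≤ compLabel μ b
  refine card_le_card fun j => ?_
  simp only [mem_filter, mem_univ, true_and]
  exact fun h' => h'.trans h

lemma card_lab {μ : Fin n → ℕ} (hμ : ∑ i, μ i = n) (a : Fin n) : #{i | lab hμ i = a} = μ a := by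
  have h1 : ∑ k with k ≤ a, μ k = ∑ k with k < a, μ k + μ a := by
    rw [show ({k | k ≤ a} : Finset (Fin n)) = insert a ({k | k < a} : Finset (Fin n)) by
      ext k; simp [le_iff_eq_or_lt], sum_insert (by simp), add_comm]
  have h2 : ∑ k with k ≤ a, μ k ≤ n := (sum_le_sum_of_subset (subset_univ _)).trans hμ.le
  have h3 : ∀ i, lab hμ i = a ↔ (i : ℕ) ∈ Ico (∑ k with k < a, μ k) (∑ k with k < a, μ k + μ a) := by
    intro i
    have e1 := lt_compLabel μ i a
    have e2 := le_compLabel μ i a
    simp only [lab, Fin.ext_iff, mem_Ico]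
    omega
  simp only [h3]
  rw [card_filter, Fin.sum_univ_eq_sum_range (fun i => if i ∈ Ico (∑ k with k < a, μ k)
    (∑ k with k < a, μ k + μ a) then 1 else 0) n, ← card_filter, filter_mem_eq_inter,
    inter_eq_right.mpr (by intro k; simp only [mem_Ico, mem_range]; omega)]
  simp

lemma parabolicGL_eq {μ : Fin n → ℕ} (hμ : ∑ i, μ i = n) (F : Type*) [Field F] :
    parabolicGL n F μ = Par F (lab hμ) := rfl

lemma youngSubgroup_eq {μ : Fin n → ℕ} (hμ : ∑ i, μ i = n) : youngSubgroup μ = Yg (lab hμ) := by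
  ext σ
  exact forall_congr' fun i => (Fin.ext_iff (a := lab hμ (σ i)) (b := lab hμ i)).symm

theorem inner_parabolicGL {F : Type*} [Field F] [Fintype (GL (Fin n) F)] {μ ν : Fin n → ℕ}
    (hμ : ∑ i, μ i = n) (hν : ∑ i, ν i = n) :
    classInner (fixedPointCharacter (parabolicGL n F μ)) (fixedPointCharacter (parabolicGL n F ν)) =
      Nat.card (NM μ ν) := by
  rw [parabolicGL_eq hμ, parabolicGL_eq hν]
  exact inner_Par (lab_mono hμ) (lab_mono hν) (card_lab hμ) (card_lab hν)

theorem inner_youngSubgroup {μ ν : Fin n → ℕ} (hμ : ∑ i, μ i = n) (hν : ∑ i, ν i = n) :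
    classInner (fixedPointCharacter (youngSubgroup μ)) (fixedPointCharacter (youngSubgroup ν)) =
      Nat.card (NM μ ν) := by
  rw [youngSubgroup_eq hμ, youngSubgroup_eq hν]
  exact inner_Yg (card_lab hμ) (card_lab hν)

/-- The `q`-factorial. -/
def QF (q r : ℕ) : ℕ := ∏ j ∈ range r, ∑ l ∈ range (j + 1), q ^ l

variable {ι κ : Type*} [Fintype ι] [DecidableEq ι] {F : Type*} [Field F] [Fintype F]

lemma card_GL' : Nat.card (GL ι F) = Fintype.card F ^ (∑ i ∈ range (Fintype.card ι), i) *
    (Fintype.card F - 1) ^ Fintype.card ι * QF (Fintype.card F) (Fintype.card ι) := by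
  rw [Nat.card_congr (Units.mapEquiv
    (reindexAlgEquiv F F (Fintype.equivFin ι)).toMulEquiv).toEquiv]
  erw [card_GL_field]
  generalize Fintype.card ι = r
  obtain ⟨x, hx⟩ : ∃ x, Fintype.card F = x + 1 := ⟨_, (Nat.succ_pred_eq_of_pos Fintype.card_pos).symm⟩
  rw [hx, Fin.prod_univ_eq_prod_range (fun i => (x + 1) ^ r - (x + 1) ^ i) r, QF,
    ← prod_range_reflect (fun j => ∑ l ∈ range (j + 1), (x + 1) ^ l), ← prod_pow_eq_pow_sum,
    Nat.add_sub_cancel, pow_eq_prod_const x, ← prod_mul_distrib, ← prod_mul_distrib]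
  refine prod_congr rfl fun i hi => ?_
  have hi := mem_range.mp hi
  have := geom_sum_mul_add x (r - 1 - i + 1)
  have e : (x + 1) ^ r = (x + 1) ^ i * (x + 1) ^ (r - 1 - i + 1) := by
    rw [← pow_add]; congr 1; omega
  rw [e, ← this, Nat.sub_eq_iff_eq_add (by nlinarith [Nat.zero_le ((x + 1) ^ i *
    ((∑ l ∈ range (r - 1 - i + 1), (x + 1) ^ l) * x))])]
  ring

variable [LinearOrder κ] [Fintype κ]

omit [Fintype F] in
lemma card_Par [Finite F] (b : ι → κ) : Nat.card (Par F b) =
    (∏ a, Nat.card (GL {i // b i = a} F)) * Nat.card F ^ #{p : ι × ι | b p.1 < b p.2} := by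
  have hd : ∀ g : Par F b, ∀ a, (g.1.1.toSquareBlock b a).det ≠ 0 := fun g a => by
    have := g.1.det_ne_zero
    rw [BlockTriangular.det_fintype g.2,
      prod_ne_zero_iff] at this
    exact this a (mem_univ a)
  let f : Par F b → (Π a, GL {i // b i = a} F) × ({p : ι × ι // b p.1 < b p.2} → F) := fun g =>
    (fun a => Matrix.GeneralLinearGroup.mkOfDetNeZero _ (hd g a), fun p => g.1.1 p.1.1 p.1.2)
  have hf : Function.Bijective f := by
    constructor
    · intro g g' h
      ext i j
      rcases lt_trichotomy (b i) (b j) with h1 | h1 | h1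
      · exact congrFun (congrArg Prod.snd h) ⟨(i, j), h1⟩
      · exact congrArg (fun x : GL {k // b k = b j} F => x.1 ⟨i, h1⟩ ⟨j, rfl⟩)
          (congrFun (congrArg Prod.fst h) (b j))
      · rw [g.2 h1, g'.2 h1]
    · rintro ⟨D, O⟩
      let A : Matrix ι ι F := of fun i j => if h : b i < b j then O ⟨(i, j), h⟩ else
        if h : b j = b i then (D (b i)).1 ⟨i, rfl⟩ ⟨j, h⟩ else 0
      have hA : A.BlockTriangular b := fun i j h => by
        simp [A, h.not_gt, h.ne]
      have hD : ∀ a, A.toSquareBlock b a = (D a).1 := by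
        intro a
        ext ⟨i, rfl⟩ ⟨j, hj⟩
        simp [A, toSquareBlock_def, hj]
      refine ⟨⟨Matrix.GeneralLinearGroup.mkOfDetNeZero A ?_, hA⟩, Prod.ext ?_ ?_⟩
      · rw [hA.det_fintype, prod_ne_zero_iff]
        exact fun a _ => hD a ▸ (D a).det_ne_zero
      · funext a
        exact Units.ext (hD a)
      · funext p
        exact dif_pos p.2
  rw [Nat.card_congr (Equiv.ofBijective f hf), Nat.card_prod, Nat.card_pi, Nat.card_fun,
    Nat.card_eq_fintype_card (α := {p : ι × ι // _}), Fintype.card_subtype]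

omit [DecidableEq ι] in
lemma sum_tri (b : ι → κ) : ∑ a, ∑ i ∈ range #{i | b i = a}, i + #{p : ι × ι | b p.1 < b p.2} =
    ∑ i ∈ range (Fintype.card ι), i := by
  have h0 : ∀ r : ℕ, (∑ i ∈ range r, i) * 2 + r = r * r := fun r => by
    rw [sum_range_id_mul_two]; rcases r with _ | r <;> simp; ring
  have h1 : ∑ a, #{i | b i = a} = Fintype.card ι :=
    (card_eq_sum_card_fiberwise (f := b) (s := univ) (t := univ) (by simp)).symm
  have h2 : ∑ a, #{i | b i = a} * #{i | b i = a} = #{p : ι × ι | b p.1 = b p.2} := by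
    rw [card_eq_sum_card_fiberwise (f := fun p : ι × ι => b p.1) (t := univ) (by simp)]
    refine sum_congr rfl fun a _ => ?_
    rw [← card_product]
    congr 1
    ext p
    simp only [mem_product, mem_filter, mem_univ, true_and]
    grind
  have h3 : #{p : ι × ι | b p.2 < b p.1} = #{p : ι × ι | b p.1 < b p.2} :=
    card_bij (fun p _ => p.swap) (by simp) (fun _ _ _ _ h => Prod.swap_injective h)
      fun p hp => ⟨p.swap, by simpa using hp, rfl⟩
  have h4 : #{p : ι × ι | b p.1 = b p.2} + #{p : ι × ι | b p.2 < b p.1} +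
      #{p : ι × ι | b p.1 < b p.2} = Fintype.card ι * Fintype.card ι := by
    rw [← Fintype.card_prod, ← card_univ, card_eq_sum_ones univ]
    simp only [card_filter, ← sum_add_distrib]
    exact sum_congr rfl fun p _ => by grind
  have h5 := h0 (Fintype.card ι)
  simp only [← h0, sum_add_distrib, ← sum_mul] at h2
  omega

theorem index_Par (b : ι → κ) : Nat.card (GL ι F ⧸ Par F b) *
    ∏ a, QF (Fintype.card F) #{i | b i = a} = QF (Fintype.card F) (Fintype.card ι) := by
  have h := (Par F b).card_eq_card_quotient_mul_card_subgroup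
  have h1 : ∑ a, #{i | b i = a} = Fintype.card ι :=
    (card_eq_sum_card_fiberwise (f := b) (s := univ) (t := univ) (by simp)).symm
  rw [card_Par, card_GL', ← sum_tri b] at h
  simp only [card_GL', Fintype.card_subtype, prod_mul_distrib, prod_pow_eq_pow_sum, h1,
    Nat.card_eq_fintype_card (α := F)] at h
  have hq : 1 < Fintype.card F := Fintype.one_lt_card
  have hp : 0 < Fintype.card F ^ (∑ a, ∑ i ∈ range #{i | b i = a}, i +
      #{p : ι × ι | b p.1 < b p.2}) * (Fintype.card F - 1) ^ Fintype.card ι :=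
    mul_pos (pow_pos (by omega) _) (pow_pos (by omega) _)
  refine Nat.eq_of_mul_eq_mul_left hp ?_
  rw [h]; ring

theorem index_parabolicGL {μ : Fin n → ℕ} (hμ : ∑ i, μ i = n) :
    Nat.card (GL (Fin n) F ⧸ parabolicGL n F μ) * ∏ a, QF (Fintype.card F) (μ a) =
      QF (Fintype.card F) n := by
  have := index_Par (F := F) (lab hμ)
  simp only [card_lab, Fintype.card_fin] at this
  exact this

end H64.GC
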