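import Mathlib
import Cfsg.Agent.Lib.GLChar.JT
import Cfsg.Agent.Lib.GLChar.Index

/-!
The unipotent characters of `GL_n(q)`: orthogonality, degrees, irreducibility (Steinberg 1951).
-/

set_option autoImplicit false

namespace H64.GC

open Finset Matrix Cfsg

variable {n : ℕ} {F : Type*} [Field F]

open Classical in
lemma uc_eq (ν : Fin n → ℕ) : unipotentCharacterGL n F ν = ∑ κ : Equiv.Perm (Fin n),
    if ∀ i, (κ i : ℕ) ≤ ν i + i then ((Equiv.Perm.sign κ : ℤ) : ℂ) •
      fixedPointCharacter (parabolicGL n F fun i => ν i + i - κ i) else 0 := by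
  funext g
  rw [unipotentCharacterGL, Finset.sum_apply]
  refine sum_congr rfl fun κ _ => ?_
  split_ifs <;> rfl

lemma sum_sub_eq {ν : Fin n → ℕ} (hν : ∑ i, ν i = n) {κ : Equiv.Perm (Fin n)}
    (h : ∀ i, (κ i : ℕ) ≤ ν i + i) : ∑ i, (ν i + i - κ i) = n := by
  have h1 : ∑ i, (ν i + i - κ i) + ∑ i, (κ i : ℕ) = ∑ i, ν i + ∑ i : Fin n, (i : ℕ) := by
    rw [← sum_add_distrib, ← sum_add_distrib]
    exact sum_congr rfl fun i _ => Nat.sub_add_cancel (h i)
  rw [Equiv.sum_comp κ fun i => (i : ℕ)] at h1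
  omega

lemma strictMono_add {ν : Fin n → ℕ} (h : Monotone ν) : StrictMono fun i => ν i + i :=
  fun _ _ hab => Nat.add_lt_add_of_le_of_lt (h hab.le) hab

theorem inner_uc [Fintype (GL (Fin n) F)] {ν ν' : Fin n → ℕ} (h : Monotone ν) (hν : ∑ i, ν i = n)
    (h' : Monotone ν') (hν' : ∑ i, ν' i = n) :
    classInner (unipotentCharacterGL n F ν) (unipotentCharacterGL n F ν') =
      if ν = ν' then 1 else 0 := by
  have e : ν = ν' ↔ (fun i => ν i + i) = fun i => ν' i + i := by simp [funext_iff]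
  have := congrArg (Int.cast : ℤ → ℂ) (alt_sum (strictMono_add h) (strictMono_add h'))
  push_cast at this
  rw [if_congr e rfl rfl, ← this, uc_eq, uc_eq, H6.classInner_sum_left]
  refine sum_congr rfl fun κ _ => ?_
  rw [H6.classInner_sum_right]
  refine sum_congr rfl fun κ' _ => ?_
  split_ifs with h1 h2
  · rw [H6.classInner_smul_left, H6.classInner_smul_right,
      inner_parabolicGL (sum_sub_eq hν h1) (sum_sub_eq hν' h2), map_intCast, mul_assoc]
  · exact H6.classInner_zero_right _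
  · exact H6.classInner_zero_left _
  · exact H6.classInner_zero_left _

theorem isGen_uc [Finite F] (ν : Fin n → ℕ) :
    IsGeneralizedCharacter _ (unipotentCharacterGL n F ν) := by
  rw [uc_eq]
  refine H6.isGen_sum _ fun κ _ => ?_
  split_ifs
  · exact H6.isGen_intCast_smul _ (H6.char_isGen (H6.isCharacter_fixedBy _))
  · exact H6.isGen_zero

/-- The `q`-integers. -/
def Qn (q r : ℕ) : ℕ := ∑ l ∈ range r, q ^ l

lemma QF_succ (q r : ℕ) : QF q (r + 1) = QF q r * Qn q (r + 1) := prod_range_succ _ _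

lemma QF_ne_zero (q r : ℕ) : QF q r ≠ 0 := prod_ne_zero_iff.mpr fun j _ => by
  rw [sum_range_succ']; simp

lemma Qn_add (q a b : ℕ) : Qn q (a + b) = Qn q a + q ^ a * Qn q b := by
  simp [Qn, sum_range_add, mul_sum, pow_add]

lemma QF_div (q m j : ℕ) : (if j ≤ m then (QF q m : ℂ) * (QF q (m - j) : ℂ)⁻¹ else 0) *
    (q : ℂ) ^ (∑ k ∈ range j, k) = ∏ k ∈ range j, ((Qn q m : ℂ) - Qn q k) := by
  split_ifs with h
  · induction j with
    | zero => simp [QF_ne_zero]
    | succ j ih =>
      obtain ⟨r, rfl⟩ := Nat.exists_eq_add_of_le h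
      rw [prod_range_succ, ← ih (by omega), sum_range_succ, show j + 1 + r - j = r + 1 by omega,
        show j + 1 + r - (j + 1) = r by omega, show j + 1 + r = j + (r + 1) by omega, Qn_add,
        QF_succ q r]
      have h1 : (QF q r : ℂ) ≠ 0 := Nat.cast_ne_zero.mpr (QF_ne_zero q r)
      have h2 : (Qn q (r + 1) : ℂ) ≠ 0 := Nat.cast_ne_zero.mpr (by rw [Qn, sum_range_succ']; simp)
      push_cast
      field_simp
      ring
  · rw [zero_mul, prod_eq_zero (mem_range.mpr (not_le.mp h)) (sub_self _)]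

lemma sum_sum_range (n : ℕ) : ∑ j ∈ range n, ∑ k ∈ range j, k = n * (n - 1) * (n - 2) / 6 := by
  have : ∀ n : ℕ, n * (n - 1) * (n - 2) = 6 * ∑ j ∈ range n, ∑ k ∈ range j, k := by
    intro n
    induction n with
    | zero => simp
    | succ n ih =>
      have h := sum_range_id_mul_two n
      rw [sum_range_succ, mul_add, ← ih, show 6 * ∑ k ∈ range n, k = 3 * (n * (n - 1)) by omega]
      rcases n with _ | _ | n <;> simp
      ring
  rw [this]; simp

theorem degree_uc [Fintype F] {ν : Fin n → ℕ} (hν : ∑ i, ν i = n) :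
    unipotentCharacterGL n F ν 1 * (Fintype.card F : ℂ) ^ (n * (n - 1) * (n - 2) / 6) *
        ∏ i : Fin n, (QF (Fintype.card F) (ν i + i) : ℂ) =
      QF (Fintype.card F) n * ∏ i : Fin n, ∏ j ∈ Ioi i,
        ((Qn (Fintype.card F) (ν j + j) : ℂ) - Qn (Fintype.card F) (ν i + i)) := by
  set q := Fintype.card F
  rw [← det_vandermonde, det_eval_matrixOfPolynomials_eq_det_vandermonde _
    (fun j => ∏ k ∈ range j, (Polynomial.X - Polynomial.C (Qn q k : ℂ)))
    (fun j => by
      rw [Polynomial.natDegree_prod_of_monic _ _ fun _ _ => Polynomial.monic_X_sub_C _]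
      simp only [Polynomial.natDegree_X_sub_C]; simp)
    (fun j => Polynomial.monic_prod_of_monic _ _ fun _ _ => Polynomial.monic_X_sub_C _),
    ← det_transpose, det_apply', unipotentCharacterGL, sum_mul, sum_mul, mul_sum]
  refine sum_congr rfl fun κ _ => ?_
  simp only [transpose_apply, of_apply, Polynomial.eval_prod, Polynomial.eval_sub,
    Polynomial.eval_X, Polynomial.eval_C, ← QF_div, prod_mul_distrib, prod_pow_eq_pow_sum,
    prod_ite_zero, mem_univ, forall_const]
  rw [Equiv.sum_comp κ fun i => ∑ k ∈ range i, k,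
    Fin.sum_univ_eq_sum_range (fun i => ∑ k ∈ range i, k), sum_sum_range]
  split_ifs with h
  · have h1 := congrArg (Nat.cast : ℕ → ℂ) (index_parabolicGL (F := F) (sum_sub_eq hν h))
    push_cast at h1
    rw [fixedPointCharacter, MulAction.fixedBy_one_eq_univ, Nat.card_univ, ← h1, prod_inv_distrib]
    have : ∏ i, (QF q (ν i + i - κ i) : ℂ) ≠ 0 :=
      prod_ne_zero_iff.mpr fun _ _ => Nat.cast_ne_zero.mpr (QF_ne_zero _ _)
    field_simp
    rfl
  · simp

theorem isIrr_uc [Fintype F] {ν : Fin n → ℕ} (h : Monotone ν) (hν : ∑ i, ν i = n) :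
    IsIrrCharacter _ (unipotentCharacterGL n F ν) := by
  have : Fintype (GL (Fin n) F) := Fintype.ofFinite _
  refine H6.isIrr_of_gen_of_inner_self (isGen_uc ν) (by rw [inner_uc h hν h hν, if_pos rfl]) ?_
  obtain ⟨d, hd⟩ := H6.gen_one_int (isGen_uc (F := F) ν)
  have h1 := degree_uc (F := F) hν
  rw [hd] at h1 ⊢
  have h2 : d * (Fintype.card F : ℤ) ^ (n * (n - 1) * (n - 2) / 6) *
      ∏ i : Fin n, (QF (Fintype.card F) (ν i + i) : ℤ) =
      QF (Fintype.card F) n * ∏ i : Fin n, ∏ j ∈ Ioi i,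
        ((Qn (Fintype.card F) (ν j + j) : ℤ) - Qn (Fintype.card F) (ν i + i)) := by
    exact_mod_cast h1
  have h3 : (0 : ℤ) ≤ QF (Fintype.card F) n * ∏ i : Fin n, ∏ j ∈ Ioi i,
      ((Qn (Fintype.card F) (ν j + j) : ℤ) - Qn (Fintype.card F) (ν i + i)) :=
    mul_nonneg (by positivity) (prod_nonneg fun i _ => prod_nonneg fun j hj => by
      rw [sub_nonneg, Nat.cast_le]
      exact sum_le_sum_of_subset (range_mono (strictMono_add h (mem_Ioi.mp hj)).le))
  rw [← h2, mul_assoc] at h3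
  simp only [Complex.intCast_re, Int.cast_nonneg_iff]
  refine nonneg_of_mul_nonneg_left h3 (mul_pos (pow_pos (by exact_mod_cast Fintype.card_pos) _)
    (prod_pos fun i _ => by exact_mod_cast Nat.pos_of_ne_zero (QF_ne_zero _ _)))

end H64.GC
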